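import Cfsg.Agent.H877.Siegel
import Cfsg.Agent.H930.SpInSU

/-!
# Complementary totally singular pairs in the unitary space

`IsPair q X Y`: complementary totally singular subspaces. If a subgroup `M` of `SU_n(q)` contains all elements
preserving `X` and `Y` and all elements interchanging them (`HM`, `HS`), and one of its elements does neither, and
`dim X = dim Y ≥ 4`, then `M = SU_n(q)`.
-/

set_option autoImplicit false
set_option linter.unusedSectionVars false
set_option linter.unusedSimpArgs false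

namespace Cfsg.Agent.H877

open Cfsg Cfsg.Geo Cfsg.Agent.H918 Cfsg.Agent.LieClassical.HermBasic Cfsg.Agent.H930
open scoped Matrix MatrixGroups

variable {F : Type*} [Field F] [Fintype F] {n q : ℕ}

/-- `X`, `Y` are complementary totally singular subspaces. -/
structure IsPair (q : ℕ) (X Y : Submodule F (Fin n → F)) : Prop where
  tsX : ∀ u ∈ X, ∀ v ∈ X, hermForm n F q u v = 0
  tsY : ∀ u ∈ Y, ∀ v ∈ Y, hermForm n F q u v = 0
  compl : IsCompl X Y

variable {X Y : Submodule F (Fin n → F)}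

theorem IsPair.symm (h : IsPair q X Y) : IsPair q Y X := ⟨h.tsY, h.tsX, h.compl.symm⟩

theorem IsPair.decomp (h : IsPair q X Y) (v : Fin n → F) : ∃ x ∈ X, ∃ y ∈ Y, v = x + y := by
  have : v ∈ X ⊔ Y := by rw [h.compl.sup_eq_top]; trivial
  obtain ⟨x, hx, y, hy, hxy⟩ := Submodule.mem_sup.1 this
  exact ⟨x, hx, y, hy, hxy.symm⟩

theorem IsPair.eq_zero (h : IsPair q X Y) {v : Fin n → F} (hx : v ∈ X) (hy : v ∈ Y) : v = 0 :=
  Submodule.disjoint_def.1 h.compl.disjoint v hx hy

theorem IsPair.exists_ne (hF : Fintype.card F = q ^ 2) (h : IsPair q X Y) {x : Fin n → F} (hx : x ∈ X)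
    (hx0 : x ≠ 0) : ∃ y ∈ Y, hermForm n F q x y ≠ 0 := by
  obtain ⟨v, hv⟩ := exists_herm_ne_zero hF hx0
  obtain ⟨a, ha, b, hb, rfl⟩ := h.decomp v
  refine ⟨b, hb, ?_⟩
  rwa [herm_add_right hF, h.tsX x hx a ha, zero_add] at hv

theorem IsPair.exists_ne' (hF : Fintype.card F = q ^ 2) (h : IsPair q X Y) {x : Fin n → F} (hx : x ∈ X)
    (hx0 : x ≠ 0) : ∃ y ∈ Y, hermForm n F q y x ≠ 0 := by
  obtain ⟨y, hy, hxy⟩ := h.exists_ne hF hx hx0
  exact ⟨y, hy, fun h0 => hxy (herm_eq_zero_swap hF h0)⟩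

/-- A vector of `Y` outside the line of `w` is not orthogonal to `X ∩ w^⊥`. -/
theorem IsPair.exists_perp (hF : Fintype.card F = q ^ 2) (h : IsPair q X Y) {w y : Fin n → F} (hw : w ∈ Y)
    (hy : y ∈ Y) (hyw : ∀ c : F, y ≠ c • w) :
    ∃ u ∈ X, hermForm n F q u w = 0 ∧ hermForm n F q u y ≠ 0 := by
  by_contra hcon
  push Not at hcon
  by_cases hw0 : w = 0
  · subst hw0
    have hy0 : y ≠ 0 := by
      intro h0
      exact hyw 0 (by rw [h0, smul_zero])
    obtain ⟨x, hx, hxy⟩ := h.symm.exists_ne' hF hy hy0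
    exact hxy (hcon x hx (herm_zero_right hF x))
  · obtain ⟨z, hz, hzw⟩ := h.symm.exists_ne' hF hw hw0
    set c : F := (hermForm n F q z y / hermForm n F q z w) ^ q with hc
    have hcq : c ^ q = hermForm n F q z y / hermForm n F q z w := by rw [hc, pow_q_pow_q hF]
    have hne : y - c • w ≠ 0 := sub_ne_zero.2 (hyw c)
    obtain ⟨x, hx, hxy⟩ := h.symm.exists_ne' hF (Y.sub_mem hy (Y.smul_mem c hw)) hne
    apply hxy
    have h1 := hcon (x - (hermForm n F q x w / hermForm n F q z w) • z) (X.sub_mem hx (X.smul_mem _ hz)) (by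
      rw [herm_sub_left, herm_smul_left]
      field_simp
      ring)
    rw [herm_sub_left, herm_smul_left] at h1
    rw [herm_sub_right hF, herm_smul_right, hcq]
    field_simp at h1 ⊢
    linear_combination h1

variable {M : Subgroup (GL (Fin n) F)}

/-- `M` contains all elements of `SU_n(q)` preserving `X` and `Y`. -/
def Fixes (q : ℕ) (X Y : Submodule F (Fin n → F)) (M : Subgroup (GL (Fin n) F)) : Prop :=
  ∀ g ∈ SUg n F q, (∀ x ∈ X, (g : Matrix (Fin n) (Fin n) F) *ᵥ x ∈ X) →
    (∀ y ∈ Y, (g : Matrix (Fin n) (Fin n) F) *ᵥ y ∈ Y) → g ∈ M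

theorem Fixes.symm (h : Fixes q X Y M) : Fixes q Y X M := fun g hg h1 h2 => h g hg h2 h1

theorem SG_std (hF : Fintype.card F = q ^ 2) (hP : IsPair q X Y) (HM : Fixes q X Y M) {u w : Fin n → F}
    (hu : u ∈ X) (hw : w ∈ Y) (huw : hermForm n F q u w = 0) : SG q M u w := by
  have hT := SG_top hF (hP.tsX u hu u hu) (hP.tsY w hw w hw) huw
  refine ⟨hT.1, hT.2.1, hT.2.2.1, fun l => ?_⟩
  obtain ⟨g, hg, hgx⟩ := hT.2.2.2 l
  refine ⟨g, HM g hg (fun x hx => ?_) (fun y hy => ?_), hgx⟩
  · rw [hgx, hP.tsX x hx u hu, mul_zero, zero_smul, sub_zero]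
    exact X.add_mem hx (X.smul_mem _ hu)
  · rw [hgx, hP.tsY y hy w hw, mul_zero, zero_smul, add_zero]
    exact Y.sub_mem hy (Y.smul_mem _ hw)

theorem isometry_of_mem (hMS : M ≤ SUg n F q) {g : GL (Fin n) F} (hg : g ∈ M) (x y : Fin n → F) :
    hermForm n F q ((g : Matrix (Fin n) (Fin n) F) *ᵥ x) ((g : Matrix (Fin n) (Fin n) F) *ᵥ y) =
      hermForm n F q x y := (mem_SUg.1 (hMS hg)).1 x y

/-- The stabiliser of `X` and `Y` moves every non-zero vector of `Y` to any other one, up to scalars. -/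
theorem exists_move (hF : Fintype.card F = q ^ 2) (hP : IsPair q X Y) (HM : Fixes q X Y M)
    {y y' : Fin n → F} (hy : y ∈ Y) (hy' : y' ∈ Y) (hyy : ∀ c : F, y ≠ c • (y - y')) :
    ∃ g ∈ M, (g : Matrix (Fin n) (Fin n) F) *ᵥ y = y' := by
  obtain ⟨u, hu, hu1, hu2⟩ := hP.exists_perp hF (Y.sub_mem hy hy') hy hyy
  have hSG := SG_std hF hP HM hu (Y.sub_mem hy hy') hu1
  have hyu : hermForm n F q y u ≠ 0 := fun h0 => hu2 (herm_eq_zero_swap hF h0)
  obtain ⟨g, hg, hgx⟩ := hSG.2.2.2 ((hermForm n F q y u)⁻¹ ^ q)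
  refine ⟨g, hg, ?_⟩
  rw [hgx, hP.tsY y hy _ (Y.sub_mem hy hy'), mul_zero, zero_smul, add_zero, pow_q_pow_q hF,
    inv_mul_cancel₀ hyu, one_smul]
  abel

theorem TT_move (hF : Fintype.card F = q ^ 2) (hP : IsPair q X Y) (HM : Fixes q X Y M) (hMS : M ≤ SUg n F q)
    {y y' : Fin n → F} (hy : y ∈ Y) (hy' : y' ∈ Y) (hy0 : y ≠ 0) (hT : TT q M y) : TT q M y' := by
  by_cases hyy : ∃ c : F, y = c • (y - y')
  · obtain ⟨c, hc⟩ := hyy
    have hc0 : c ≠ 0 := by
      rintro rfl
      exact hy0 (by rw [hc, zero_smul])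
    have : y' = (1 - c⁻¹) • y := by
      rw [sub_smul, one_smul]
      have h1 : c⁻¹ • y = y - y' := by
        conv_lhs => rw [hc]
        rw [smul_smul, inv_mul_cancel₀ hc0, one_smul]
      rw [h1]
      abel
    rw [this]
    exact hT.smul hF _
  · push Not at hyy
    obtain ⟨g, hg, hgy⟩ := exists_move hF hP HM hy hy' hyy
    rw [← hgy]
    exact hT.conj hg (isometry_of_mem hMS hg)

/-- Transvections with centres in `X` and in `Y` give all of them. -/
theorem TT_all (hF : Fintype.card F = q ^ 2) (hP : IsPair q X Y) (hMS : M ≤ SUg n F q)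
    (hX : ∀ x ∈ X, TT q M x) (hY : ∀ y ∈ Y, TT q M y) {v : Fin n → F} (hv : hermForm n F q v v = 0) :
    TT q M v := by
  -- first case
  have key : ∀ x ∈ X, ∀ y ∈ Y, hermForm n F q x y ≠ 0 → hermForm n F q (x + y) (x + y) = 0 → TT q M (x + y) := by
    intro x hx y hy hxy hv
    rw [herm_add_left, herm_add_right hF, herm_add_right hF, hP.tsX x hx x hx, hP.tsY y hy y hy] at hv
    have h1 : hermForm n F q y x = hermForm n F q x y ^ q := herm_swap hF x y
    have h2 : hermForm n F q y x ≠ 0 := fun h0 => hxy (herm_eq_zero_swap hF h0)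
    have h3 : hermForm n F q x y ^ q = - hermForm n F q x y := by rw [← h1]; linear_combination hv
    obtain ⟨t, ht, htx⟩ := (hX x hx).2 (hermForm n F q y x)⁻¹ (by
      rw [h1, inv_pow, pow_q_pow_q hF, h3, inv_neg]
      ring)
    have : (t : Matrix (Fin n) (Fin n) F) *ᵥ y = x + y := by
      rw [htx, inv_mul_cancel₀ h2, one_smul, add_comm]
    rw [← this]
    exact (hY y hy).conj ht (isometry_of_mem hMS ht)
  obtain ⟨x, hx, y, hy, rfl⟩ := hP.decomp v
  by_cases hx0 : x = 0
  · rw [hx0, zero_add]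
    exact hY y hy
  by_cases hxy : hermForm n F q x y = 0
  · obtain ⟨z, hz, hxz⟩ := hP.exists_ne hF hx hx0
    obtain ⟨c, hc0, hc⟩ := exists_trace_zero_ne hF
    obtain ⟨t, ht, htx⟩ := (hY z hz).2 c hc
    have e : (t : Matrix (Fin n) (Fin n) F) *ᵥ (x + y) = x + (y + (c * hermForm n F q x z) • z) := by
      rw [htx, herm_add_left, hP.tsY y hy z hz, add_zero, add_assoc]
    have h1 : hermForm n F q (x + (y + (c * hermForm n F q x z) • z)) (x + (y + (c * hermForm n F q x z) • z)) = 0 := by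
      rw [← e, isometry_of_mem hMS ht, hv]
    have h2 : hermForm n F q x (y + (c * hermForm n F q x z) • z) ≠ 0 := by
      rw [herm_add_right hF, hxy, zero_add, herm_smul_right]
      refine mul_ne_zero ?_ hxz
      intro h0
      exact mul_ne_zero hc0 hxz ((pow_q_eq_zero hF).1 h0)
    have h3 := key x hx _ (Y.add_mem hy (Y.smul_mem _ hz)) h2 h1
    rw [← e] at h3
    have h4 := h3.conj (M.inv_mem ht) (isometry_of_mem hMS (M.inv_mem ht))
    rwa [inv_mulVec] at h4
  · exact key x hx y hy hxy hv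

/-! ### The swap -/

/-- The swap on a hyperbolic pair. -/
theorem exists_swap_one (hF : Fintype.card F = q ^ 2) {c : F} (hc0 : c ≠ 0) (hc : c + c ^ q = 0)
    {e f : Fin n → F} (he : hermForm n F q e e = 0) (hf : hermForm n F q f f = 0)
    (hef : hermForm n F q e f = 1) (hfe : hermForm n F q f e = 1) :
    ∃ s ∈ SUg n F q, (s : Matrix (Fin n) (Fin n) F) *ᵥ e = (-c⁻¹) • f ∧
      (s : Matrix (Fin n) (Fin n) F) *ᵥ f = c • e ∧
      ∀ x, hermForm n F q x e = 0 → hermForm n F q x f = 0 → (s : Matrix (Fin n) (Fin n) F) *ᵥ x = x := by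
  have hcq : c ^ q = -c := by linear_combination hc
  have hd : -c⁻¹ + (-c⁻¹) ^ q = 0 := by
    rw [neg_pow_q hF, inv_pow, hcq, inv_neg]
    ring
  refine ⟨tv hF e c he hc * tv hF f (-c⁻¹) hf hd * tv hF e c he hc,
    Subgroup.mul_mem _ (Subgroup.mul_mem _ (tv_mem hF _ _) (tv_mem hF _ _)) (tv_mem hF _ _), ?_, ?_, ?_⟩
  · rw [Units.val_mul, Units.val_mul, ← Matrix.mulVec_mulVec, ← Matrix.mulVec_mulVec, tv_mulVec, tv_mulVec,
      tv_mulVec]
    simp only [herm_add_left, herm_smul_left, he, hf, hef, hfe]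
    ext i
    simp only [Pi.add_apply, Pi.smul_apply, smul_eq_mul]
    field_simp
    ring
  · rw [Units.val_mul, Units.val_mul, ← Matrix.mulVec_mulVec, ← Matrix.mulVec_mulVec, tv_mulVec, tv_mulVec,
      tv_mulVec]
    simp only [herm_add_left, herm_smul_left, he, hf, hef, hfe]
    ext i
    simp only [Pi.add_apply, Pi.smul_apply, smul_eq_mul]
    field_simp
    ring
  · intro x hxe hxf
    rw [Units.val_mul, Units.val_mul, ← Matrix.mulVec_mulVec, ← Matrix.mulVec_mulVec, tv_mulVec, tv_mulVec,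
      tv_mulVec]
    simp only [herm_add_left, herm_smul_left, he, hf, hef, hfe, hxe, hxf, mul_zero, zero_smul, add_zero]

/-- There is an element of `SU_n(q)` interchanging `X` and `Y`. -/
theorem IsPair.exists_swap (hF : Fintype.card F = q ^ 2) (hP : IsPair q X Y)
    (hXY : Module.finrank F X = Module.finrank F Y) :
    ∃ s ∈ SUg n F q, (∀ x ∈ X, (s : Matrix (Fin n) (Fin n) F) *ᵥ x ∈ Y) ∧
      ∀ y ∈ Y, (s : Matrix (Fin n) (Fin n) F) *ᵥ y ∈ X := by
  classical
  obtain ⟨c, hc0, hc⟩ := exists_trace_zero_ne hF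
  let b := Module.finBasis F X
  let L : Y →ₗ[F] (Fin (Module.finrank F X) → F) :=
    { toFun := fun y i => hermForm n F q y (b i : Fin n → F)
      map_add' := fun x y => by ext i; simp [herm_add_left]
      map_smul' := fun a x => by ext i; simp [herm_smul_left] }
  have hL : ∀ y i, L y i = hermForm n F q y (b i : Fin n → F) := fun _ _ => rfl
  have hspan : ∀ x (hx : x ∈ X), x = ∑ i, b.repr ⟨x, hx⟩ i • (b i : Fin n → F) := by
    intro x hx
    have := congrArg (fun z : X => (z : Fin n → F)) (b.sum_repr ⟨x, hx⟩)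
    simp only [AddSubmonoidClass.coe_finsetSum, Submodule.coe_smul] at this
    exact this.symm
  have hinj : Function.Injective L := by
    rw [← LinearMap.ker_eq_bot, LinearMap.ker_eq_bot']
    intro y hy
    by_contra hy0
    have hy0' : (y : Fin n → F) ≠ 0 := fun h0 => hy0 (Subtype.ext h0)
    obtain ⟨x, hx, hyx⟩ := hP.symm.exists_ne hF y.2 hy0'
    apply hyx
    rw [hspan x hx, herm_sum_right hF]
    refine Finset.sum_eq_zero fun i _ => ?_
    rw [herm_smul_right]
    have := congrFun hy i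
    rw [hL] at this
    rw [this, Pi.zero_apply, mul_zero]
  have hsurj : Function.Surjective L := by
    rw [← LinearMap.injective_iff_surjective_of_finrank_eq_finrank]
    · exact hinj
    · rw [Module.finrank_fin_fun, hXY]
  choose f hf using fun i : Fin (Module.finrank F X) => hsurj (Pi.single i 1)
  have hfe : ∀ i j, hermForm n F q (f i : Fin n → F) (b j : Fin n → F) = if j = i then 1 else 0 := by
    intro i j
    rw [← hL, hf, Pi.single_apply]
  have hef : ∀ i j, hermForm n F q (b j : Fin n → F) (f i : Fin n → F) = if j = i then 1 else 0 := by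
    intro i j
    rw [herm_swap hF, hfe]
    split_ifs
    · exact one_pow q
    · exact zero_pow_q hF
  have hind : ∀ S : Finset (Fin (Module.finrank F X)), ∃ s ∈ SUg n F q,
      (∀ j, (s : Matrix (Fin n) (Fin n) F) *ᵥ (b j : Fin n → F) =
        if j ∈ S then (-c⁻¹) • (f j : Fin n → F) else (b j : Fin n → F)) ∧
      (∀ j, (s : Matrix (Fin n) (Fin n) F) *ᵥ (f j : Fin n → F) =
        if j ∈ S then c • (b j : Fin n → F) else (f j : Fin n → F)) := by
    intro S
    induction S using Finset.induction_on with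
    | empty => exact ⟨1, Subgroup.one_mem _, fun j => by simp, fun j => by simp⟩
    | insert i S hi ih =>
      obtain ⟨s, hs, hs1, hs2⟩ := ih
      obtain ⟨t, ht, ht1, ht2, ht3⟩ := exists_swap_one hF hc0 hc (hP.tsX _ (b i).2 _ (b i).2)
        (hP.tsY _ (f i).2 _ (f i).2) (by rw [hef, if_pos rfl]) (by rw [hfe, if_pos rfl])
      have hb : ∀ j, j ≠ i → (t : Matrix (Fin n) (Fin n) F) *ᵥ (b j : Fin n → F) = b j := by
        intro j hj
        exact ht3 _ (hP.tsX _ (b j).2 _ (b i).2) (by rw [hef, if_neg hj])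
      have hf' : ∀ j, j ≠ i → (t : Matrix (Fin n) (Fin n) F) *ᵥ (f j : Fin n → F) = f j := by
        intro j hj
        exact ht3 _ (by rw [hfe, if_neg (Ne.symm hj)]) (hP.tsY _ (f j).2 _ (f i).2)
      refine ⟨t * s, Subgroup.mul_mem _ ht hs, fun j => ?_, fun j => ?_⟩
      · rw [Units.val_mul, ← Matrix.mulVec_mulVec, hs1]
        by_cases hj : j = i
        · subst hj
          rw [if_neg hi, ht1, if_pos (Finset.mem_insert_self _ _)]
        · by_cases hjS : j ∈ S
          · rw [if_pos hjS, if_pos (Finset.mem_insert_of_mem hjS), Matrix.mulVec_smul, hf' j hj]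
          · rw [if_neg hjS, if_neg (by rw [Finset.mem_insert]; tauto), hb j hj]
      · rw [Units.val_mul, ← Matrix.mulVec_mulVec, hs2]
        by_cases hj : j = i
        · subst hj
          rw [if_neg hi, ht2, if_pos (Finset.mem_insert_self _ _)]
        · by_cases hjS : j ∈ S
          · rw [if_pos hjS, if_pos (Finset.mem_insert_of_mem hjS), Matrix.mulVec_smul, hb j hj]
          · rw [if_neg hjS, if_neg (by rw [Finset.mem_insert]; tauto), hf' j hj]
  obtain ⟨s, hs, hs1, hs2⟩ := hind Finset.univ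
  refine ⟨s, hs, fun x hx => ?_, fun y hy => ?_⟩
  · rw [hspan x hx, Matrix.mulVec_sum]
    refine Y.sum_mem fun i _ => ?_
    rw [Matrix.mulVec_smul, hs1, if_pos (Finset.mem_univ _)]
    exact Y.smul_mem _ (Y.smul_mem _ (f i).2)
  · have hyf : y = ∑ i, hermForm n F q y (b i : Fin n → F) • (f i : Fin n → F) := by
      have : (⟨y, hy⟩ : Y) = ∑ i, hermForm n F q y (b i : Fin n → F) • f i := by
        apply hinj
        rw [map_sum]
        ext j
        rw [Finset.sum_apply, hL]
        simp only [map_smul, Pi.smul_apply, smul_eq_mul, hf, Pi.single_apply]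
        simp
      have h2 := congrArg (fun z : Y => (z : Fin n → F)) this
      simpa using h2
    rw [hyf, Matrix.mulVec_sum]
    refine X.sum_mem fun i _ => ?_
    rw [Matrix.mulVec_smul, hs2, if_pos (Finset.mem_univ _)]
    exact X.smul_mem _ (X.smul_mem _ (b i).2)

end Cfsg.Agent.H877
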