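import Cfsg.Agent.H877.UPairMain

/-!
# The stabiliser of a pair of complementary totally singular subspaces is maximal in `SU_n(q)`
-/

set_option autoImplicit false
set_option linter.unusedSectionVars false
set_option linter.unusedSimpArgs false

namespace Cfsg.Agent.H877

open Cfsg Cfsg.Geo Cfsg.Agent.H918 Cfsg.Agent.LieClassical.HermBasic Cfsg.Agent.H930
open scoped Matrix MatrixGroups

variable {F : Type*} [Field F] [Fintype F] {n q : ℕ}

section

variable {k : ℕ} {D : Fin 2 → Submodule F (Fin n → F)}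

theorem isPair_of_decomp (hD : IsMDecomposition k D) (hts : ∀ i, IsTotallySingularFor (hermForm n F q) (D i)) :
    IsPair q (D 0) (D 1) := by
  refine ⟨fun u hu v hv => hts 0 u hu v hv, fun u hu v hv => hts 1 u hu v hv, ?_⟩
  refine ⟨hD.indep.pairwiseDisjoint (by decide), ?_⟩
  rw [codisjoint_iff]
  have h := hD.iSup_eq_top
  rw [eq_top_iff] at h ⊢
  refine h.trans (iSup_le fun i => ?_)
  fin_cases i
  · exact le_sup_left
  · exact le_sup_right

theorem map_eq_of_le (hD : IsMDecomposition k D) {g : GL (Fin n) F} {i j : Fin 2}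
    (h : ∀ x ∈ D i, (g : Matrix (Fin n) (Fin n) F) *ᵥ x ∈ D j) :
    (D i).map (Matrix.toLin' (g : Matrix (Fin n) (Fin n) F)) = D j := by
  apply Submodule.eq_of_le_of_finrank_eq
  · rintro _ ⟨x, hx, rfl⟩
    rw [Matrix.toLin'_apply]
    exact h x hx
  · have hinj : Function.Injective (Matrix.toLin' (g : Matrix (Fin n) (Fin n) F)) := by
      intro x y hxy
      rw [Matrix.toLin'_apply, Matrix.toLin'_apply] at hxy
      have := congrArg (fun z => ((g⁻¹ : GL (Fin n) F) : Matrix (Fin n) (Fin n) F) *ᵥ z) hxy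
      simpa only [inv_mulVec] using this
    rw [← (Submodule.equivMapOfInjective _ hinj (D i)).finrank_eq, hD.finrank_eq, hD.finrank_eq]

theorem mem_stab_of_fix (hD : IsMDecomposition k D) {g : GL (Fin n) F}
    (h0 : ∀ x ∈ D 0, (g : Matrix (Fin n) (Fin n) F) *ᵥ x ∈ D 0)
    (h1 : ∀ x ∈ D 1, (g : Matrix (Fin n) (Fin n) F) *ᵥ x ∈ D 1) : g ∈ decompositionStabilizer D := by
  refine ⟨1, fun i => ?_⟩
  fin_cases i
  · exact map_eq_of_le hD h0
  · exact map_eq_of_le hD h1

theorem mem_stab_of_swap (hD : IsMDecomposition k D) {g : GL (Fin n) F}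
    (h0 : ∀ x ∈ D 0, (g : Matrix (Fin n) (Fin n) F) *ᵥ x ∈ D 1)
    (h1 : ∀ x ∈ D 1, (g : Matrix (Fin n) (Fin n) F) *ᵥ x ∈ D 0) : g ∈ decompositionStabilizer D := by
  refine ⟨Equiv.swap 0 1, fun i => ?_⟩
  fin_cases i
  · change _ = D ((Equiv.swap 0 1) 0)
    rw [Equiv.swap_apply_left]
    exact map_eq_of_le hD h0
  · change _ = D ((Equiv.swap 0 1) 1)
    rw [Equiv.swap_apply_right]
    exact map_eq_of_le hD h1

/-- **The stabiliser in `SU_n(q)` of a pair of complementary totally singular subspaces of dimension `k ≥ 4` is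
maximal.** -/
theorem pair_maximal_of (hF : Fintype.card F = q ^ 2) (hn : 3 ≤ n) (h32 : ¬ (n = 3 ∧ q = 2))
    (hD : IsMDecomposition k D)
    (hts : ∀ i, IsTotallySingularFor (hermForm n F q) (D i))
    (hmain : ∀ (X Y : Submodule F (Fin n → F)) (M : Subgroup (GL (Fin n) F)), IsPair q X Y →
      Module.finrank F X = k → Module.finrank F Y = k → Fixes q X Y M → Swaps q X Y M → M ≤ SUg n F q →
      ∀ g ∈ M, ¬ ((∀ x ∈ X, (g : Matrix (Fin n) (Fin n) F) *ᵥ x ∈ X) ∧
        ∀ y ∈ Y, (g : Matrix (Fin n) (Fin n) F) *ᵥ y ∈ Y) →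
      ¬ ((∀ x ∈ X, (g : Matrix (Fin n) (Fin n) F) *ᵥ x ∈ Y) ∧
        ∀ y ∈ Y, (g : Matrix (Fin n) (Fin n) F) *ᵥ y ∈ X) → SUg n F q ≤ M) :
    IsMaximalIn (SUg n F q) (decompositionStabilizer D ⊓ SUg n F q) := by
  refine ⟨lt_of_le_of_ne inf_le_right fun h => ?_, fun M hHM hMS => ?_⟩
  · exact SUg_not_le_decompositionStabilizer hF hn h32 hD (h.ge.trans inf_le_left)
  by_cases hMsub : M ≤ decompositionStabilizer D
  · left
    exact le_antisymm (le_inf hMsub hMS) hHM
  right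
  refine le_antisymm hMS ?_
  obtain ⟨g, hgM, hg⟩ := SetLike.not_le_iff_exists.1 hMsub
  refine hmain (D 0) (D 1) M (isPair_of_decomp hD hts) (hD.finrank_eq 0) (hD.finrank_eq 1)
    (fun g hg h0 h1 => hHM ⟨mem_stab_of_fix hD h0 h1, hg⟩) (fun g hg h0 h1 => hHM ⟨mem_stab_of_swap hD h0 h1, hg⟩)
    hMS g hgM (fun h => hg (mem_stab_of_fix hD h.1 h.2)) (fun h => hg (mem_stab_of_swap hD h.1 h.2))

/-- **The stabiliser in `SU_n(q)` of a pair of complementary totally singular subspaces of dimension `k ≥ 4` is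
maximal.** -/
theorem pair_maximal_of_four (hF : Fintype.card F = q ^ 2) (hn : 3 ≤ n) (hk : 4 ≤ k)
    (hD : IsMDecomposition k D)
    (hts : ∀ i, IsTotallySingularFor (hermForm n F q) (D i)) :
    IsMaximalIn (SUg n F q) (decompositionStabilizer D ⊓ SUg n F q) := by
  have h4 : 4 ≤ n := by
    have h1 := (D 0).finrank_le
    rw [hD.finrank_eq, Module.finrank_fin_fun] at h1
    omega
  have h32 : ¬ (n = 3 ∧ q = 2) := by omega
  refine pair_maximal_of hF hn h32 hD hts ?_
  intro X Y M hP hX hY HM HS hMS g hg hg1 hg2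
  exact SUg_le_of_four hF h32 hP (by rw [hX, hY]) (by rw [hY]; exact hk) HM HS hMS hg hg1 hg2

end

end Cfsg.Agent.H877
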