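import Cfsg.Agent.H877.UPair

/-!
# Overgroups of the stabiliser of a totally singular pair, `k ≥ 4`
-/

set_option autoImplicit false
set_option linter.unusedSectionVars false
set_option linter.unusedSimpArgs false

namespace Cfsg.Agent.H877

open Cfsg Cfsg.Geo Cfsg.Agent.H918 Cfsg.Agent.LieClassical.HermBasic Cfsg.Agent.H930
open scoped Matrix MatrixGroups

variable {F : Type*} [Field F] [Fintype F] {n q : ℕ}
variable {X Y : Submodule F (Fin n → F)} {M : Subgroup (GL (Fin n) F)}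

/-- Vectors of `Y` orthogonal to two given vectors. -/
theorem exists_pair_perp (hk : 4 ≤ Module.finrank F Y) (a b : Fin n → F) :
    ∃ x y : Fin n → F, LinearIndependent F ![x, y] ∧
      ∀ z ∈ Submodule.span F {x, y}, z ∈ Y ∧ hermForm n F q z a = 0 ∧ hermForm n F q z b = 0 := by
  let L : Y →ₗ[F] (F × F) :=
    { toFun := fun u => (hermForm n F q u a, hermForm n F q u b)
      map_add' := fun x y => by simp [herm_add_left]
      map_smul' := fun c x => by simp [herm_smul_left] }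
  have hdim : 2 ≤ Module.finrank F (LinearMap.ker L) := by
    have h1 := L.finrank_range_add_finrank_ker
    have h2 : Module.finrank F (LinearMap.range L) ≤ 2 := by
      refine (Submodule.finrank_le _).trans ?_
      simp
    omega
  have hnt : Nontrivial (LinearMap.ker L) := Module.nontrivial_of_finrank_pos (by omega : 0 < Module.finrank F (LinearMap.ker L))
  obtain ⟨x, hx⟩ := exists_ne (0 : LinearMap.ker L)
  obtain ⟨y, hxy⟩ := exists_linearIndependent_pair_of_one_lt_finrank (R := F) (M := LinearMap.ker L) (by omega) hx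
  refine ⟨((x : Y) : Fin n → F), ((y : Y) : Fin n → F), ?_, ?_⟩
  · have h1 := (hxy.map' (LinearMap.ker L).subtype (Submodule.ker_subtype _)).map' Y.subtype (Submodule.ker_subtype _)
    have e : Y.subtype ∘ (LinearMap.ker L).subtype ∘ ![x, y] = ![((x : Y) : Fin n → F), ((y : Y) : Fin n → F)] := by
      ext i
      fin_cases i <;> rfl
    rwa [e] at h1
  · intro z hz
    obtain ⟨s, t, rfl⟩ := Submodule.mem_span_pair.1 hz
    have hx1 := x.2
    have hy1 := y.2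
    rw [LinearMap.mem_ker] at hx1 hy1
    have hx2 : hermForm n F q ((x : Y) : Fin n → F) a = 0 := congrArg Prod.fst hx1
    have hx3 : hermForm n F q ((x : Y) : Fin n → F) b = 0 := congrArg Prod.snd hx1
    have hy2 : hermForm n F q ((y : Y) : Fin n → F) a = 0 := congrArg Prod.fst hy1
    have hy3 : hermForm n F q ((y : Y) : Fin n → F) b = 0 := congrArg Prod.snd hy1
    refine ⟨Y.add_mem (Y.smul_mem _ (x : Y).2) (Y.smul_mem _ (y : Y).2), ?_, ?_⟩
    · rw [herm_add_left, herm_smul_left, herm_smul_left, hx2, hy2]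
      ring
    · rw [herm_add_left, herm_smul_left, herm_smul_left, hx3, hy3]
      ring

/-- The basic step: `u, w` are images under `M` of orthogonal vectors of `X`, `Y`, and `w' ∈ Y` is orthogonal to both
and not proportional to the `Y`-components of `u` and `w`. -/
theorem TT_of_perp (hF : Fintype.card F = q ^ 2) (hP : IsPair q X Y) (HM : Fixes q X Y M)
    (hMS : M ≤ SUg n F q) {ux uy wx wy w' : Fin n → F} (hux : ux ∈ X) (huy : uy ∈ Y) (hwx : wx ∈ X)
    (hwy : wy ∈ Y) (hw' : w' ∈ Y) (hSG : SG q M (ux + uy) (wx + wy)) (h1 : hermForm n F q w' ux = 0)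
    (h2 : hermForm n F q w' wx = 0) (h3 : ∀ c : F, uy ≠ c • w') (h4 : ∀ c : F, wy ≠ c • w') : TT q M w' := by
  obtain ⟨u1, hu1, hu1w, hu1u⟩ := hP.exists_perp hF hw' huy h3
  obtain ⟨u2, hu2, hu2w, hu2u⟩ := hP.exists_perp hF hw' hwy h4
  obtain ⟨u', hu', hu'w, hu'u, hu'w'⟩ : ∃ u' ∈ X, hermForm n F q u' w' = 0 ∧ hermForm n F q u' uy ≠ 0 ∧
      hermForm n F q u' wy ≠ 0 := by
    by_cases hx : hermForm n F q u1 wy = 0
    · by_cases hy : hermForm n F q u2 uy = 0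
      · refine ⟨u1 + u2, X.add_mem hu1 hu2, ?_, ?_, ?_⟩
        · rw [herm_add_left, hu1w, hu2w, add_zero]
        · rw [herm_add_left, hy, add_zero]; exact hu1u
        · rw [herm_add_left, hx, zero_add]; exact hu2u
      · exact ⟨u2, hu2, hu2w, hy, hu2u⟩
    · exact ⟨u1, hu1, hu1w, hu1u, hx⟩
  have e1 : hermForm n F q u' (ux + uy) = hermForm n F q u' uy := by
    rw [herm_add_right hF, hP.tsX u' hu' ux hux, zero_add]
  have e2 : hermForm n F q u' (wx + wy) = hermForm n F q u' wy := by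
    rw [herm_add_right hF, hP.tsX u' hu' wx hwx, zero_add]
  have e3 : hermForm n F q w' (ux + uy) = 0 := by
    rw [herm_add_right hF, h1, hP.tsY w' hw' uy huy, zero_add]
  have e4 : hermForm n F q w' (wx + wy) = 0 := by
    rw [herm_add_right hF, h2, hP.tsY w' hw' wy hwy, zero_add]
  obtain ⟨η, hη⟩ := exists_not_fixed hF
  set α := hermForm n F q u' uy with hα
  set β := hermForm n F q u' wy with hβ
  have he : β ^ q * α ≠ 0 := mul_ne_zero (fun h0 => hu'w' ((pow_q_eq_zero hF).1 h0)) hu'u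
  obtain ⟨g, hg, hgx⟩ := hSG.2.2.2 ((η / (β ^ q * α)) ^ q)
  have hstd := SG_std hF hP HM hu' hw' hu'w
  have hconj := hstd.conj hg (isometry_of_mem hMS hg)
  have hgw : (g : Matrix (Fin n) (Fin n) F) *ᵥ w' = w' := by
    rw [hgx, e3, e4]
    simp
  rw [hgw] at hconj
  refine TT_of_SG hF hstd hconj ?_
  rw [hgx, e1, e2, pow_q_pow_q hF, herm_sub_right hF, herm_add_right hF, herm_smul_right, herm_smul_right,
    hP.tsX u' hu' u' hu', e1, e2]
  have e5 : ((η / (β ^ q * α)) ^ q * β) ^ q * α = η := by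
    rw [mul_pow, pow_q_pow_q hF]
    field_simp
  have e6 : (η / (β ^ q * α) * α) ^ q * β = η ^ q := by
    have hα0 : α ^ q ≠ 0 := fun h0 => hu'u ((pow_q_eq_zero hF).1 h0)
    rw [mul_pow, div_pow, mul_pow, pow_q_pow_q hF]
    field_simp
  rw [e5, e6, zero_add]
  exact sub_ne_zero.2 (Ne.symm hη)

/-- The case `k ≥ 4`. -/
theorem exists_center_of_four (hF : Fintype.card F = q ^ 2) (hP : IsPair q X Y) (HM : Fixes q X Y M)
    (hMS : M ≤ SUg n F q) (hk : 4 ≤ Module.finrank F Y) {g : GL (Fin n) F} (hg : g ∈ M) {u₀ w₀ : Fin n → F}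
    (hu₀ : u₀ ∈ X) (hw₀ : w₀ ∈ Y) (huw : hermForm n F q u₀ w₀ = 0)
    (hgu : (g : Matrix (Fin n) (Fin n) F) *ᵥ u₀ ∉ X) (hgw : (g : Matrix (Fin n) (Fin n) F) *ᵥ w₀ ∉ X) :
    ∃ w' ∈ Y, w' ≠ 0 ∧ TT q M w' := by
  have hSG := (SG_std hF hP HM hu₀ hw₀ huw).conj hg (isometry_of_mem hMS hg)
  obtain ⟨ux, hux, uy, huy, hu⟩ := hP.decomp ((g : Matrix (Fin n) (Fin n) F) *ᵥ u₀)
  obtain ⟨wx, hwx, wy, hwy, hw⟩ := hP.decomp ((g : Matrix (Fin n) (Fin n) F) *ᵥ w₀)
  have huy0 : uy ≠ 0 := by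
    rintro rfl
    apply hgu
    rw [hu, add_zero]
    exact hux
  have hwy0 : wy ≠ 0 := by
    rintro rfl
    apply hgw
    rw [hw, add_zero]
    exact hwx
  rw [hu, hw] at hSG
  obtain ⟨x, y, hxy, hperp⟩ := exists_pair_perp (q := q) hk ux wx
  obtain ⟨z, hz, hzb, hzB⟩ := SpInSU.exists_notMem_lines (b := uy) (b' := wy) hxy
  obtain ⟨hzY, hz1, hz2⟩ := hperp z hz
  have hflip : ∀ {a b : Fin n → F}, a ≠ 0 → (∀ c : F, b ≠ c • a) → ∀ c : F, a ≠ c • b := by
    intro a b ha hab c hc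
    have hc0 : c ≠ 0 := by
      rintro rfl
      exact ha (by rw [hc, zero_smul])
    exact hab c⁻¹ (by rw [hc, smul_smul, inv_mul_cancel₀ hc0, one_smul])
  have hz0 : z ≠ 0 := by
    rintro rfl
    exact hzb 0 (by rw [zero_smul])
  exact ⟨z, hzY, hz0, TT_of_perp hF hP HM hMS hux huy hwx hwy hzY hSG hz1 hz2 (hflip huy0 hzb) (hflip hwy0 hzB)⟩

/-- A subspace mapped into the union of two subspaces is mapped into one of them. -/
theorem forall_or {V : Type*} [AddCommGroup V] [Module F V] {X Y Z : Submodule F V} (f : V →ₗ[F] V)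
    (h : ∀ z ∈ Z, f z ∈ X ∨ f z ∈ Y) : (∀ z ∈ Z, f z ∈ X) ∨ ∀ z ∈ Z, f z ∈ Y := by
  by_contra hcon
  push Not at hcon
  obtain ⟨⟨a, ha, haX⟩, b, hb, hbY⟩ := hcon
  have haY : f a ∈ Y := (h a ha).resolve_left haX
  have hbX : f b ∈ X := (h b hb).resolve_right hbY
  rcases h (a + b) (Z.add_mem ha hb) with h1 | h1
  · rw [map_add] at h1
    exact haX (by simpa using X.sub_mem h1 hbX)
  · rw [map_add] at h1
    exact hbY (by simpa using Y.sub_mem h1 haY)

theorem exists_perp_ne_zero (hk : 2 ≤ Module.finrank F Y) (a : Fin n → F) :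
    ∃ y ∈ Y, y ≠ 0 ∧ hermForm n F q y a = 0 := by
  let L : Y →ₗ[F] F :=
    { toFun := fun u => hermForm n F q u a
      map_add' := fun x y => by simp [herm_add_left]
      map_smul' := fun c x => by simp [herm_smul_left] }
  have hdim : 1 ≤ Module.finrank F (LinearMap.ker L) := by
    have h1 := L.finrank_range_add_finrank_ker
    have h2 : Module.finrank F (LinearMap.range L) ≤ 1 := by
      refine (Submodule.finrank_le _).trans ?_
      simp
    omega
  have hnt : Nontrivial (LinearMap.ker L) := Module.nontrivial_of_finrank_pos (by omega : 0 < Module.finrank F (LinearMap.ker L))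
  obtain ⟨x, hx⟩ := exists_ne (0 : LinearMap.ker L)
  refine ⟨(x : Y), (x : Y).2, ?_, ?_⟩
  · intro h0
    exact hx (Subtype.ext (Subtype.ext h0))
  · exact (LinearMap.mem_ker.1 x.2 : _)

/-- An element which neither preserves nor interchanges `X` and `Y` moves some orthogonal pair badly. -/
theorem exists_bad_pair (hF : Fintype.card F = q ^ 2) (hP : IsPair q X Y) (hX : 2 ≤ Module.finrank F X)
    (hY : 2 ≤ Module.finrank F Y) {g : GL (Fin n) F}
    (hg1 : ¬ ((∀ x ∈ X, (g : Matrix (Fin n) (Fin n) F) *ᵥ x ∈ X) ∧ ∀ y ∈ Y, (g : Matrix (Fin n) (Fin n) F) *ᵥ y ∈ Y))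
    (hg2 : ¬ ((∀ x ∈ X, (g : Matrix (Fin n) (Fin n) F) *ᵥ x ∈ Y) ∧ ∀ y ∈ Y, (g : Matrix (Fin n) (Fin n) F) *ᵥ y ∈ X)) :
    ∃ u ∈ X, ∃ w ∈ Y, hermForm n F q u w = 0 ∧
      (((g : Matrix (Fin n) (Fin n) F) *ᵥ u ∉ X ∧ (g : Matrix (Fin n) (Fin n) F) *ᵥ w ∉ X) ∨
        ((g : Matrix (Fin n) (Fin n) F) *ᵥ u ∉ Y ∧ (g : Matrix (Fin n) (Fin n) F) *ᵥ w ∉ Y)) := by
  by_contra hcon
  push Not at hcon
  have hg0 : ∀ x : Fin n → F, (g : Matrix (Fin n) (Fin n) F) *ᵥ x = 0 → x = 0 := by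
    intro x hx
    have := inv_mulVec g x
    rw [hx, Matrix.mulVec_zero] at this
    exact this.symm
  have c1 : ∀ u ∈ X, (g : Matrix (Fin n) (Fin n) F) *ᵥ u ∈ X ∨ (g : Matrix (Fin n) (Fin n) F) *ᵥ u ∈ Y := by
    intro u hu
    by_contra hc
    push Not at hc
    obtain ⟨w, hw, hw0, hwu⟩ := exists_perp_ne_zero (q := q) hY u
    obtain ⟨h1, h2⟩ := hcon u hu w hw (herm_eq_zero_swap hF hwu)
    exact hw0 (hg0 w (hP.eq_zero (h1 hc.1) (h2 hc.2)))
  have c2 : ∀ w ∈ Y, (g : Matrix (Fin n) (Fin n) F) *ᵥ w ∈ X ∨ (g : Matrix (Fin n) (Fin n) F) *ᵥ w ∈ Y := by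
    intro w hw
    by_contra hc
    push Not at hc
    obtain ⟨u, hu, hu0, huw⟩ := exists_perp_ne_zero (q := q) hX w
    obtain ⟨h1, h2⟩ := hcon u hu w hw huw
    refine hu0 (hg0 u (hP.eq_zero ?_ ?_))
    · by_contra h3
      exact hc.1 (h1 h3)
    · by_contra h3
      exact hc.2 (h2 h3)
  have d1 := forall_or (Matrix.mulVecLin (g : Matrix (Fin n) (Fin n) F)) c1
  have d2 := forall_or (Matrix.mulVecLin (g : Matrix (Fin n) (Fin n) F)) c2
  -- a subspace containing the image of `X` and `Y` is everything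
  have hall : ∀ Z : Submodule F (Fin n → F), (∀ x ∈ X, (g : Matrix (Fin n) (Fin n) F) *ᵥ x ∈ Z) →
      (∀ y ∈ Y, (g : Matrix (Fin n) (Fin n) F) *ᵥ y ∈ Z) → ∀ v, v ∈ Z := by
    intro Z h1 h2 v
    obtain ⟨x, hx, y, hy, hxy⟩ := hP.decomp (((g⁻¹ : GL (Fin n) F) : Matrix (Fin n) (Fin n) F) *ᵥ v)
    have := mulVec_inv g v
    rw [← this, hxy, Matrix.mulVec_add]
    exact Z.add_mem (h1 x hx) (h2 y hy)
  have hX0 : ∃ x ∈ X, x ≠ 0 := Submodule.exists_mem_ne_zero_of_ne_bot (by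
    rintro rfl
    rw [finrank_bot] at hX
    omega)
  have hY0 : ∃ x ∈ Y, x ≠ 0 := Submodule.exists_mem_ne_zero_of_ne_bot (by
    rintro rfl
    rw [finrank_bot] at hY
    omega)
  rcases d1 with d1 | d1 <;> rcases d2 with d2 | d2
  · obtain ⟨y, hy, hy0⟩ := hY0
    exact hy0 (hP.eq_zero (hall X d1 d2 y) hy)
  · exact hg1 ⟨d1, d2⟩
  · exact hg2 ⟨d1, d2⟩
  · obtain ⟨x, hx, hx0⟩ := hX0
    exact hx0 (hP.eq_zero hx (hall Y d1 d2 x))

/-- `M` contains all elements of `SU_n(q)` interchanging `X` and `Y`. -/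
def Swaps (q : ℕ) (X Y : Submodule F (Fin n → F)) (M : Subgroup (GL (Fin n) F)) : Prop :=
  ∀ g ∈ SUg n F q, (∀ x ∈ X, (g : Matrix (Fin n) (Fin n) F) *ᵥ x ∈ Y) →
    (∀ y ∈ Y, (g : Matrix (Fin n) (Fin n) F) *ᵥ y ∈ X) → g ∈ M

theorem Swaps.symm (h : Swaps q X Y M) : Swaps q Y X M := fun g hg h1 h2 => h g hg h2 h1

/-- One centre in `Y` gives everything. -/
theorem SUg_le_of_center (hF : Fintype.card F = q ^ 2) (h32 : ¬ (n = 3 ∧ q = 2)) (hP : IsPair q X Y)
    (hXY : Module.finrank F X = Module.finrank F Y) (HM : Fixes q X Y M) (HS : Swaps q X Y M)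
    (hMS : M ≤ SUg n F q) {w : Fin n → F} (hw : w ∈ Y) (hw0 : w ≠ 0) (hT : TT q M w) : SUg n F q ≤ M := by
  have hY : ∀ y ∈ Y, TT q M y := fun y hy => TT_move hF hP HM hMS hw hy hw0 hT
  obtain ⟨s, hs, hsX, hsY⟩ := hP.exists_swap hF hXY
  have hsM := HS s hs hsX hsY
  have hX : ∀ x ∈ X, TT q M x := by
    intro x hx
    have h1 := (hY _ (hsX x hx)).conj (M.inv_mem hsM) (isometry_of_mem hMS (M.inv_mem hsM))
    rwa [inv_mulVec] at h1
  exact SUg_le_of_TT hF h32 fun v hv => TT_all hF hP hMS hX hY hv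

theorem SUg_le_of_four (hF : Fintype.card F = q ^ 2) (h32 : ¬ (n = 3 ∧ q = 2)) (hP : IsPair q X Y)
    (hXY : Module.finrank F X = Module.finrank F Y) (hk : 4 ≤ Module.finrank F Y) (HM : Fixes q X Y M)
    (HS : Swaps q X Y M) (hMS : M ≤ SUg n F q) {g : GL (Fin n) F} (hg : g ∈ M)
    (hg1 : ¬ ((∀ x ∈ X, (g : Matrix (Fin n) (Fin n) F) *ᵥ x ∈ X) ∧ ∀ y ∈ Y, (g : Matrix (Fin n) (Fin n) F) *ᵥ y ∈ Y))
    (hg2 : ¬ ((∀ x ∈ X, (g : Matrix (Fin n) (Fin n) F) *ᵥ x ∈ Y) ∧ ∀ y ∈ Y, (g : Matrix (Fin n) (Fin n) F) *ᵥ y ∈ X)) :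
    SUg n F q ≤ M := by
  obtain ⟨u, hu, w, hw, huw, h | h⟩ := exists_bad_pair hF hP (by omega) (by omega) hg1 hg2
  · obtain ⟨w', hw', hw0, hT⟩ := exists_center_of_four hF hP HM hMS hk hg hu hw huw h.1 h.2
    exact SUg_le_of_center hF h32 hP hXY HM HS hMS hw' hw0 hT
  · obtain ⟨w', hw', hw0, hT⟩ := exists_center_of_four hF hP.symm HM.symm hMS (by omega) hg hw hu
      (herm_eq_zero_swap hF huw) h.2 h.1
    exact SUg_le_of_center hF h32 hP.symm hXY.symm HM.symm HS.symm hMS hw' hw0 hT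

end Cfsg.Agent.H877
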